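import Cfsg.Agent.Lib.FewFixedPoints.PGroup
import Cfsg.Agent.Lib.SectRank.SylowInter
import Cfsg.Agent.Lib.ThompsonJ.StableNormal
import Cfsg.Agent.Lib.Cores.PCore
import Cfsg.Agent.Lib.PGroups.Frattini
import Cfsg.Agent.S3779

/-!
Alperin's theorem: solvable groups with an automorphism of order `p` with `p ^ n` fixed points
have bounded derived length.
-/

set_option autoImplicit false

namespace CfsgLib.FewFixedPoints

open CfsgLib.FixedPointFree Cfsg

variable {p n : ℕ} [hp : Fact p.Prime]

/-- A solvable group has derived length at most its order. -/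
theorem derivedSeries_card {G : Type*} [Group G] [Finite G] [Group.IsSolvable G] {k : ℕ}
    (hk : Nat.card G ≤ k) : derivedSeries G k = ⊥ := by
  have key : ∀ i, derivedSeries G i = ⊥ ∨ Nat.card (derivedSeries G i) + i ≤ Nat.card G := by
    intro i
    induction i with
    | zero => exact Or.inr (by rw [add_zero, derivedSeries_zero, Subgroup.card_top])
    | succ i ih =>
      by_cases hb : derivedSeries G i = ⊥
      · exact Or.inl (by rw [derivedSeries_succ, hb, Subgroup.commutator_bot_left])
      · right
        have hlt : derivedSeries G (i + 1) < derivedSeries G i :=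
          (derivedSeries_succ G i) ▸ IsSolvable.commutator_lt_of_ne_bot hb
        have h1 : Nat.card (derivedSeries G (i + 1)) < Nat.card (derivedSeries G i) :=
          (Subgroup.card_le_of_le hlt.le).lt_of_ne fun he =>
            hlt.ne (Subgroup.eq_of_le_of_card_ge hlt.le he.ge)
        rcases ih with h | h
        · exact absurd h hb
        · omega
  rcases key k with h | h
  · exact h
  · have hpos : 0 < Nat.card (derivedSeries G k) := Nat.card_pos
    omega

variable (p) in
/-- The derived length bound for the p'-core. -/
def hBound : ℕ := ∑ i ∈ Finset.range (2 ^ (p - 1) - 1), (p - 1) ^ i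

/-- The case of trivial `p'`-core. -/
theorem derivedSeries_of_core {H : Type*} [Group H] [Finite H] [Group.IsSolvable H] {φ : H ≃* H}
    (h : Few φ p n) (hcore : Cfsg.pPrimeCore p H = ⊥) :
    derivedSeries H ((p ^ (p * n) * p ^ n).factorial + pBound p n) = ⊥ := by
  classical
  set P := pCore p H with hP
  have hPp : IsPGroup p P := Cores.isPGroup_pCore p H
  haveI : P.Characteristic := inferInstance
  have hPi : Invariant φ P := invariant_of_characteristic φ P
  refine derivedSeries_add_eq_bot (N := P) ?_ (derivedSeries_pGroup hPp (h.restr hPi))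
  set F := (frattini ↥P).map P.subtype with hF
  haveI hFn : F.Normal := inferInstance
  have hcen := SectRank.centralizer_pCore_le_of_solvable (p := p) hcore
  set K := Cfsg.sectionKernel P F with hKdef
  haveI hMn : (P.map (QuotientGroup.mk' F)).Normal :=
    Subgroup.Normal.map inferInstance _ (QuotientGroup.mk'_surjective F)
  haveI hKn : K.Normal := by rw [hKdef, Cfsg.sectionKernel]; infer_instance
  have hK : K ≤ P :=
    le_sSup ⟨hKn, ThompsonJ.isPGroup_sectionKernel_frattini (p := p) hcen⟩
  set M := P.map (QuotientGroup.mk' F) with hM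
  haveI : M.Normal := Subgroup.Normal.map inferInstance _ (QuotientGroup.mk'_surjective F)
  let f : H →* Equiv.Perm M :=
    (MulAut.toPerm M).comp ((MulAut.conjNormal (H := M)).comp (QuotientGroup.mk' F))
  have hker : f.ker ≤ K := by
    intro x hx
    show QuotientGroup.mk' F x ∈ Subgroup.centralizer (M : Set (H ⧸ F))
    rw [Subgroup.mem_centralizer_iff]
    intro m hm
    have h1 : f x ⟨m, hm⟩ = ⟨m, hm⟩ := by rw [MonoidHom.mem_ker.1 hx]; rfl
    have h2 : QuotientGroup.mk' F x * m * (QuotientGroup.mk' F x)⁻¹ = m :=
      congrArg Subtype.val h1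
    exact (mul_inv_eq_iff_eq_mul.1 h2).symm
  have hM' : Nat.card M ≤ p ^ (p * n) * p ^ n := by
    have hfr : Invariant (FixedPointFree.restr φ hPi) (frattini ↥P) :=
      invariant_of_characteristic _ _
    have h1 : Nat.card (↥P ⧸ frattini ↥P) ≤ p ^ (p * n) * p ^ n := by
      refine card_abelian_le (fun x y => ?_) (hPp.to_quotient _) ((h.restr hPi).quot hfr)
        hp.out.one_lt.le fun v => ?_
      · induction x using QuotientGroup.induction_on with
        | H a => induction y using QuotientGroup.induction_on with
          | H b =>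
            rw [← commutatorElement_eq_one_iff_mul_comm, ← QuotientGroup.mk'_apply,
              ← QuotientGroup.mk'_apply, ← map_commutatorElement, QuotientGroup.mk'_apply,
              QuotientGroup.eq_one_iff]
            exact PGroups.commutatorElement_mem_frattini hPp a b
      · induction v using QuotientGroup.induction_on with
        | H a =>
          rw [← QuotientGroup.mk_pow, QuotientGroup.eq_one_iff]
          exact PGroups.pow_mem_frattini hPp a
    let g : ↥P →* M :=
      ((QuotientGroup.mk' F).comp P.subtype).codRestrict M fun x => ⟨x, x.2, rfl⟩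
    have hg : Function.Surjective g := by
      rintro ⟨_, x, hx, rfl⟩
      exact ⟨⟨x, hx⟩, rfl⟩
    have hgk : frattini ↥P ≤ g.ker := fun x hx => by
      rw [MonoidHom.mem_ker]
      exact Subtype.ext ((QuotientGroup.eq_one_iff (x : H)).2 ⟨x, hx, rfl⟩)
    refine le_trans (Nat.card_le_card_of_surjective (QuotientGroup.lift _ g hgk) ?_) h1
    intro m
    obtain ⟨x, hx⟩ := hg m
    exact ⟨(x : ↥P ⧸ frattini ↥P), hx⟩
  have hrange : Nat.card f.range ≤ (p ^ (p * n) * p ^ n).factorial := by
    refine (Nat.le_of_dvd Nat.card_pos (Subgroup.card_subgroup_dvd_card _)).trans ?_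
    rw [Nat.card_perm]
    exact Nat.factorial_le hM'
  haveI : Group.IsSolvable f.range := Group.isSolvable_of_surjective f.rangeRestrict_surjective
  have hd := derivedSeries_card hrange
  intro x hx
  refine hK (hker ?_)
  have h1 : f.rangeRestrict x ∈ derivedSeries f.range ((p ^ (p * n) * p ^ n).factorial) :=
    map_derivedSeries_le_derivedSeries f.rangeRestrict _ ⟨x, hx, rfl⟩
  rw [hd, Subgroup.mem_bot] at h1
  exact MonoidHom.mem_ker.2 (congrArg Subtype.val h1)

/-- The p'-core is nilpotent of bounded class. -/
theorem derivedSeries_core {G : Type*} [Group G] [Finite G] (α : MulAut G) (hα : orderOf α = p)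
    (hfix : Nat.card {g : G // α g = g} = p ^ n) :
    derivedSeries (Cfsg.pPrimeCore p G) (hBound p) = ⊥ := by
  set R := Cfsg.pPrimeCore p G with hR
  haveI : R.Characteristic := inferInstance
  have hRi : Invariant α R := invariant_of_characteristic α R
  set β : MulAut R := FixedPointFree.restr α hRi
  have hco : (Nat.card R).Coprime p := Cores.card_pPrimeCore_coprime p
  have hfpf : ∀ g : R, β g = g → g = 1 := by
    intro g hg
    have hg' : α (g : G) = g := by
      have := congrArg Subtype.val hg
      rwa [coe_restr] at this
    have h1 : orderOf g ∣ p ^ n := by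
      rw [← Subgroup.orderOf_coe, ← hfix]
      have h0 : (g : G) ∈ MonoidHom.eqLocus α.toMonoidHom (MonoidHom.id G) := hg'
      rw [show orderOf (g : G) = orderOf (⟨g, h0⟩ :
        MonoidHom.eqLocus α.toMonoidHom (MonoidHom.id G)) from (Subgroup.orderOf_mk _ h0).symm]
      exact orderOf_dvd_natCard _
    exact orderOf_eq_one_iff.1
      (Nat.eq_one_of_dvd_coprimes (hco.pow_right n) (orderOf_dvd_natCard g) h1)
  by_cases hb : β = 1
  · haveI : Subsingleton R := ⟨fun x y => by
      rw [hfpf x (DFunLike.congr_fun hb x), hfpf y (DFunLike.congr_fun hb y)]⟩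
    exact Subsingleton.elim _ _
  · have hord : orderOf β = p := orderOf_eq_prime (by
      ext g
      rw [iterate_eq_pow_apply, coe_restr_iterate, ← iterate_eq_pow_apply, ← hα,
        pow_orderOf_eq_one, MulAut.one_apply, MulAut.one_apply]) hb
    have h := (Cfsg.Agent.S3779.result hp.out β hord hfpf).2.2
    rw [eq_bot_iff, ← h]
    exact Subgroup.derived_le_lower_central _

/-- **Alperin's theorem**. -/
theorem derivedSeries_eq_bot {G : Type*} [Group G] [Finite G] [Group.IsSolvable G] (α : MulAut G)
    (hα : orderOf α = p) (hfix : Nat.card {g : G // α g = g} = p ^ n) :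
    derivedSeries G ((p ^ (p * n) * p ^ n).factorial + pBound p n + hBound p) = ⊥ := by
  set R := Cfsg.pPrimeCore p G with hR
  haveI : R.Characteristic := inferInstance
  refine derivedSeries_add_eq_bot (N := R) ?_ (derivedSeries_core α hα hfix)
  have hfew : Few α p n :=
    ⟨fun g => by rw [← iterate_eq_pow_apply, ← hα, pow_orderOf_eq_one, MulAut.one_apply], hfix.le⟩
  have h := derivedSeries_of_core (hfew.quot (invariant_of_characteristic α R))
    (Cores.pPrimeCore_quotient_pPrimeCore p)
  intro x hx
  have h1 : QuotientGroup.mk' R x ∈ derivedSeries (G ⧸ R) _ :=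
    map_derivedSeries_le_derivedSeries (QuotientGroup.mk' R) _ ⟨x, hx, rfl⟩
  rw [h, Subgroup.mem_bot] at h1
  exact (QuotientGroup.eq_one_iff x).1 h1

end CfsgLib.FewFixedPoints
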