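import Cfsg.Agent.Lib.FixedPointFree.Splitting

/-!
Automorphisms with few fixed points: passing to invariant subgroups and quotients.
-/

set_option autoImplicit false

namespace CfsgLib.FewFixedPoints

open CfsgLib.FixedPointFree

variable {G : Type*} [Group G] [Finite G]

/-- An automorphism of exponent `p` with at most `p ^ n` fixed points. -/
structure Few (φ : G ≃* G) (p n : ℕ) : Prop where
  iter : ∀ g, φ^[p] g = g
  card_le : Nat.card {g : G // φ g = g} ≤ p ^ n

theorem Few.restr {φ : G ≃* G} {p n : ℕ} (h : Few φ p n) {H : Subgroup G} (hH : Invariant φ H) :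
    Few (FixedPointFree.restr φ hH) p n := by
  refine ⟨fun g => Subtype.ext ?_, le_trans (Nat.card_le_card_of_injective
    (fun x => (⟨(x.1 : G), by rw [← coe_restr φ hH, x.2]⟩ : {g : G // φ g = g})) ?_) h.card_le⟩
  · rw [coe_restr_iterate, h.iter]
  · intro x y hxy
    exact Subtype.ext (Subtype.ext (congrArg (fun z : {g : G // φ g = g} => z.1) hxy))

/-- An automorphism has no more fixed points on a quotient than on the group. -/
theorem card_fixed_quot_le {φ : G ≃* G} {N : Subgroup G} [N.Normal] (hN : Invariant φ N) :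
    Nat.card {x : G ⧸ N // quot φ hN x = x} ≤ Nat.card {g : G // φ g = g} := by
  classical
  set t : Set (G ⧸ N) := {x | quot φ hN x = x}
  have h1 : Nat.card {g : G // g⁻¹ * φ g ∈ N} = Nat.card N * Nat.card t := by
    rw [← Nat.card_prod]
    refine Nat.card_congr (.trans ?_ (QuotientGroup.preimageMkEquivSubgroupProdSet N t))
    refine Equiv.subtypeEquivRight fun g => ?_
    show _ ↔ quot φ hN (g : G ⧸ N) = (g : G ⧸ N)
    rw [quot_mk, eq_comm, QuotientGroup.eq]
  let r : G → G := Function.invFun fun g : G => g⁻¹ * φ g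
  have hr : ∀ g : G, (r (g⁻¹ * φ g))⁻¹ * φ (r (g⁻¹ * φ g)) = g⁻¹ * φ g := fun g =>
    Function.invFun_eq (f := fun g : G => g⁻¹ * φ g) ⟨g, rfl⟩
  have h2 : Nat.card {g : G // g⁻¹ * φ g ∈ N} ≤ Nat.card N * Nat.card {g : G // φ g = g} := by
    rw [← Nat.card_prod]
    refine Nat.card_le_card_of_injective
      (fun g => ((⟨g.1⁻¹ * φ g.1, g.2⟩ : N),
        (⟨g.1 * (r (g.1⁻¹ * φ g.1))⁻¹, ?_⟩ : {g : G // φ g = g}))) ?_
    · set s := r (g.1⁻¹ * φ g.1) with hs
      have he : φ g.1 = g.1 * s⁻¹ * φ s := by rw [mul_assoc, hr g.1]; group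
      rw [map_mul, map_inv, he]
      group
    · intro g g' hgg
      have e1 : g.1⁻¹ * φ g.1 = g'.1⁻¹ * φ g'.1 := congrArg Subtype.val (congrArg Prod.fst hgg)
      have e2 : g.1 * (r (g.1⁻¹ * φ g.1))⁻¹ = g'.1 * (r (g'.1⁻¹ * φ g'.1))⁻¹ :=
        congrArg Subtype.val (congrArg Prod.snd hgg)
      rw [e1] at e2
      exact Subtype.ext (mul_right_cancel e2)
  rw [h1] at h2
  exact Nat.le_of_mul_le_mul_left h2 Nat.card_pos

theorem Few.quot {φ : G ≃* G} {p n : ℕ} (h : Few φ p n) {N : Subgroup G} [N.Normal]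
    (hN : Invariant φ N) : Few (FixedPointFree.quot φ hN) p n := by
  refine ⟨fun x => ?_, (card_fixed_quot_le hN).trans h.card_le⟩
  induction x using QuotientGroup.induction_on with
  | H g => rw [quot_iterate, h.iter]

/-- In a p-group a fixed coset has order dividing `p ^ n`. -/
theorem Few.pow_mem {φ : G ≃* G} {p n : ℕ} [Fact p.Prime] (h : Few φ p n) (hG : IsPGroup p G)
    {N : Subgroup G} [N.Normal] (hN : Invariant φ N) {g : G} (hg : g⁻¹ * φ g ∈ N) :
    g ^ p ^ n ∈ N := by
  set x : G ⧸ N := (g : G ⧸ N)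
  have hx : FixedPointFree.quot φ hN x = x := by
    rw [quot_mk, eq_comm, QuotientGroup.eq]
    exact hg
  obtain ⟨j, hj⟩ := IsPGroup.iff_orderOf.1 (hG.to_quotient N) x
  have hle : orderOf x ≤ p ^ n := by
    refine le_trans ?_ (h.quot hN).card_le
    rw [← Nat.card_zpowers]
    refine Nat.card_le_card_of_injective (fun y => (⟨y.1, ?_⟩ :
      {x : G ⧸ N // FixedPointFree.quot φ hN x = x})) fun a b hab =>
        Subtype.ext (congrArg (fun z : {x : G ⧸ N // FixedPointFree.quot φ hN x = x} => z.1) hab)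
    obtain ⟨k, hk⟩ := y.2
    simp only at hk
    rw [← hk, map_zpow, hx]
  rw [hj] at hle
  have hjn : j ≤ n := (Nat.pow_le_pow_iff_right (Fact.out : p.Prime).one_lt).1 hle
  rw [← QuotientGroup.eq_one_iff, QuotientGroup.mk_pow]
  exact orderOf_dvd_iff_pow_eq_one.1 (hj ▸ pow_dvd_pow p hjn)

end CfsgLib.FewFixedPoints
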