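import Cfsg.Agent.Lib.Kreknin.Eigen

/-!
Lie rings with an automorphism of prime order whose fixed points are killed by `c`: scaling gives
a grading with trivial zero component, so high lower central factors have bounded exponent.
-/

set_option autoImplicit false
set_option linter.unusedSectionVars false

namespace CfsgLib.FewFixedPoints

open CfsgLib.Kreknin
open scoped TensorProduct commutatorElement
open Polynomial (cyclotomic)

variable {p : ℕ} [hp : Fact p.Prime]

section Lie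

variable {L : Type*} [LieRing L]

/-- The zero eigenspace is killed by whatever kills the fixed points. -/
theorem nsmul_eig_zero {T : L →+ L} {c : ℕ} (hfix : ∀ x, T x = x → c • x = 0)
    {v : Cyc p ⊗[ℤ] L} (hv : v ∈ eig T (0 : ZMod p)) : c • v = 0 := by
  rw [mem_eig, chi_zero, one_smul] at hv
  set b := (AdjoinRoot.powerBasis' (Polynomial.cyclotomic.monic p ℤ)).basis with hb
  let comp : Fin _ → (Cyc p ⊗[ℤ] L →ₗ[ℤ] L) := fun i =>
    (TensorProduct.lid ℤ L).toLinearMap.comp (LinearMap.rTensor L (b.coord i))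
  have hT : ∀ i w, comp i (ext' T w) = T (comp i w) := by
    intro i w
    induction w using TensorProduct.induction_on with
    | zero => simp
    | tmul a x =>
      show b.coord i a • T x = T (b.coord i a • x)
      rw [map_zsmul]
    | add u w hu hw => simp only [map_add, hu, hw]
  have hdec : ∀ w : Cyc p ⊗[ℤ] L, ∑ i, b i ⊗ₜ[ℤ] comp i w = w := by
    intro w
    induction w using TensorProduct.induction_on with
    | zero => simp
    | tmul a x =>
      show ∑ i, b i ⊗ₜ[ℤ] (b.repr a i • x) = a ⊗ₜ[ℤ] x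
      simp only [TensorProduct.tmul_smul, TensorProduct.smul_tmul', ← TensorProduct.sum_tmul]
      exact congrArg (· ⊗ₜ[ℤ] x) (b.sum_repr a)
    | add u w hu hw =>
      simp only [map_add, TensorProduct.tmul_add, Finset.sum_add_distrib, hu, hw]
  rw [← hdec v, Finset.smul_sum]
  refine Finset.sum_eq_zero fun i _ => ?_
  rw [← TensorProduct.tmul_smul, hfix _ (by rw [← hT, hv]), TensorProduct.tmul_zero]

/-- The scaled eigenspaces. -/
noncomputable def scaledEig (T : L →+ L) (c : ℕ) (j : ZMod p) : AddSubgroup (Cyc p ⊗[ℤ] L) :=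
  (eig T j).map (nsmulAddMonoidHom c)

theorem nsmul_mem_scaledEig {T : L →+ L} {c : ℕ} {j : ZMod p} {v : Cyc p ⊗[ℤ] L}
    (hv : v ∈ eig T j) : c • v ∈ scaledEig T c j := ⟨v, hv, rfl⟩

theorem isGraded_scaledEig {T : L →+ L} (hlie : ∀ x y, T ⁅x, y⁆ = ⁅T x, T y⁆) {c : ℕ}
    (hfix : ∀ x, T x = x → c • x = 0) : IsGraded (scaledEig (p := p) T c) := by
  constructor
  · rw [eq_bot_iff]
    rintro _ ⟨v, hv, rfl⟩
    rw [AddSubgroup.mem_bot]
    exact nsmul_eig_zero hfix hv
  · rintro a b _ _ ⟨u, hu, rfl⟩ ⟨v, hv, rfl⟩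
    simp only [nsmulAddMonoidHom_apply, nsmul_lie, lie_nsmul]
    refine nsmul_mem_scaledEig (nsmul_mem ?_ c)
    rw [SetLike.mem_coe, mem_eig] at hu hv
    rw [mem_eig, ext'_lie hlie, hu, hv, smul_br, br_smul, smul_smul, chi_add]

/-- `p` times a simple tensor is a sum of eigenvectors. -/
theorem mem_tot_scaledEig {T : L →+ L} (hTp : ∀ x, T^[p] x = x) (c : ℕ) (x : L) :
    (p * c) • ((1 : Cyc p) ⊗ₜ[ℤ] x) ∈ tot (scaledEig (p := p) T c) := by
  set v : Cyc p ⊗[ℤ] L := (1 : Cyc p) ⊗ₜ[ℤ] x with hv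
  set F : ZMod p → Cyc p ⊗[ℤ] L := fun i => (ext' T)^[i.val] v with hF
  have hper : (ext' T)^[p] v = v := by rw [hv, ext'_pow_tmul, hTp]
  have hnext : ∀ i : ZMod p, ext' T (F i) = F (i + 1) := by
    intro i
    have h1 : ext' T (F i) = (ext' T)^[i.val + 1] v := by rw [Function.iterate_succ_apply']
    rw [h1, ← ((show Function.IsPeriodicPt (ext' T) p v from hper).iterate_mod_apply (i.val + 1))]
    show _ = (ext' T)^[(i + 1).val] v
    rw [ZMod.val_add, ZMod.val_one]
  set y : ZMod p → Cyc p ⊗[ℤ] L := fun j => ∑ i : ZMod p, chi (-(i * j)) • F i with hy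
  have hye : ∀ j, y j ∈ eig T j := by
    intro j
    rw [mem_eig, hy, map_sum, Finset.smul_sum]
    refine Fintype.sum_equiv (Equiv.addRight (1 : ZMod p)) _ _ fun i => ?_
    rw [Equiv.coe_addRight, map_smul, hnext, smul_smul, ← chi_add]
    congr 2
    ring
  have hsum : ∑ j : ZMod p, y j = p • v := by
    rw [hy, Finset.sum_comm, Finset.sum_eq_single (0 : ZMod p)]
    · simp only [zero_mul, neg_zero, chi_zero, one_smul]
      rw [Finset.sum_const, Finset.card_univ, ZMod.card, hF]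
      simp only [ZMod.val_zero, Function.iterate_zero_apply]
    · intro i _ hi
      rw [← Finset.sum_smul]
      simp only [← neg_mul]
      rw [sum_chi_mul (neg_ne_zero.2 hi), zero_smul]
    · exact fun h => absurd (Finset.mem_univ _) h
  rw [mul_comm, mul_nsmul', ← hsum, Finset.smul_sum]
  exact sum_mem fun j _ => mem_tot (nsmul_mem_scaledEig (hye j))

end Lie

section Group

variable {G : Type*} [Group G]

theorem scaled_emb_mem {C : ZMod p → AddSubgroup (Cyc p ⊗[ℤ] LCS G)} {a : ℕ}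
    (hspan : ∀ x : LCS G, a • ((1 : Cyc p) ⊗ₜ[ℤ] x) ∈ tot C) :
    ∀ (k : ℕ) (g : G) (hg : g ∈ lc G k),
      a ^ (k + 1) • ((1 : Cyc p) ⊗ₜ[ℤ] emb k g hg) ∈ tot (lcs C k)
  | 0, g, hg => by rw [zero_add, pow_one]; exact hspan _
  | k + 1, g, hg => by
    let S : Subgroup G :=
      { carrier := {g | ∃ hg : g ∈ lc G (k + 1),
            a ^ (k + 1 + 1) • ((1 : Cyc p) ⊗ₜ[ℤ] emb (k + 1) g hg) ∈ tot (lcs C (k + 1))}
        one_mem' := ⟨one_mem _, by
          rw [emb_eq_zero _ (one_mem _), TensorProduct.tmul_zero, smul_zero]; exact zero_mem _⟩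
        mul_mem' := fun {u w} ⟨hu, hu'⟩ ⟨hw, hw'⟩ => ⟨mul_mem hu hw, by
          rw [emb_mul hu hw, TensorProduct.tmul_add, smul_add]; exact add_mem hu' hw'⟩
        inv_mem' := fun {u} ⟨hu, hu'⟩ => ⟨inv_mem hu, by
          rw [emb_inv hu, TensorProduct.tmul_neg, smul_neg]; exact neg_mem hu'⟩ }
    suffices hS : lc G (k + 1) ≤ S from (hS hg).2
    refine Subgroup.commutator_le.2 fun u hu w _ => ?_
    refine ⟨lc_comm_mem hu (mem_lc_zero w) (by omega), ?_⟩
    have h := lie_mem_tot (scaled_emb_mem hspan k u hu) (hspan (emb 0 w (mem_lc_zero w)))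
    rw [nsmul_lie, lie_nsmul, smul_smul, ← pow_succ] at h
    have h' : a ^ (k + 1 + 1) • (((1 : Cyc p) * 1) ⊗ₜ[ℤ] ⁅emb k u hu, emb 0 w (mem_lc_zero w)⁆) ∈
        tot (lcs C (k + 1)) := h
    rw [one_mul, lie_emb] at h'
    rw [emb_congr _ (show k + 1 = k + 0 + 1 by omega) rfl]
    exact h'

theorem lcs_eq_bot_succ {L : Type*} [LieRing L] {C : ZMod p → AddSubgroup L} {k : ℕ}
    (h : ∀ a, lcs C k a = ⊥) (a : ZMod p) : lcs C (k + 1) a = ⊥ := by
  rw [lcs_succ, eq_bot_iff]
  refine prodFam_le fun b c x y hx _ _ => ?_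
  rw [h b, AddSubgroup.mem_bot] at hx
  rw [hx, zero_lie]
  exact zero_mem _

variable (p) in
/-- The index from which on the factors have bounded exponent. -/
def kh : ℕ := (∑ i ∈ Finset.range (2 ^ (p - 1) - 1), (p - 1) ^ i) + 1

/-- The factor of index `kh p` has exponent bounded in terms of `p` and `c`. -/
theorem pow_mem_lc_succ (f : G →* G) (hfp : ∀ g, f^[p] g = g) {c : ℕ}
    (hfix : ∀ (i : ℕ) (g : G), g ∈ lc G i → g⁻¹ * f g ∈ lc G (i + 1) → g ^ c ∈ lc G (i + 1))
    {g : G} (hg : g ∈ lc G (kh p)) : g ^ (p * c) ^ (kh p + 1) ∈ lc G (kh p + 1) := by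
  set T := lcsMap f with hT
  have hTp : ∀ x : LCS G, T^[p] x = x := by
    intro x
    induction x using lcs_induction with
    | h0 => exact iterate_map_zero T p
    | he i g hg =>
      obtain ⟨h, he⟩ := lcsMap_iterate f p hg
      rw [hT, he]
      exact emb_congr _ rfl (hfp g)
    | hadd x y hx hy => rw [iterate_map_add, hx, hy]
  have hTfix : ∀ x : LCS G, T x = x → c • x = 0 := by
    intro x hx
    refine DFinsupp.ext fun i => ?_
    obtain ⟨g, hg⟩ := exists_cl (x i)
    have h := lcsMap_apply f x i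
    rw [← hT, hx, ← hg] at h
    have h' : cl i g = cl i ⟨f g, map_mem_lc f g.2⟩ := h
    have h2 : cl i (g⁻¹ * ⟨f g, map_mem_lc f g.2⟩) = 0 := by
      rw [cl_mul, ← h', ← cl_mul, inv_mul_cancel]; rfl
    show c • x i = 0
    rw [← hg]
    exact (show c • cl i g = cl i (g ^ c) from rfl).trans
      (cl_eq_zero_iff.2 (hfix i g g.2 (cl_eq_zero_iff.1 h2)))
  have hgr := isGraded_scaledEig (p := p) (lcsMap_lie f) hTfix
  have hbot : tot (lcs (scaledEig (p := p) T c) (kh p)) = ⊥ := by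
    rw [tot, iSup_eq_bot]
    exact lcs_eq_bot_succ fun a => lcs_eq_bot hgr a
  have h := scaled_emb_mem (mem_tot_scaledEig (p := p) hTp c) (kh p) g hg
  rw [hbot, AddSubgroup.mem_bot, ← TensorProduct.tmul_smul] at h
  have h0 := tmul_eq_zero h
  set e := (p * c) ^ (kh p + 1)
  have hcl : e • cl (kh p) ⟨g, hg⟩ = 0 := by
    refine DirectSum.of_injective (β := fun i => Gr G i) (kh p) ?_
    rw [map_nsmul, map_zero]
    exact h0
  exact cl_eq_zero_iff.1 ((show cl (kh p) (⟨g, hg⟩ ^ e) = e • cl (kh p) ⟨g, hg⟩ from rfl).trans hcl)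

end Group

end CfsgLib.FewFixedPoints
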