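import Cfsg.Agent.Lib.FewFixedPoints.Graded
import Cfsg.Agent.Lib.FewFixedPoints.Basic
import Cfsg.Agent.S3780
import Cfsg.Agent.S3781
import Mathlib.GroupTheory.Schreier

/-!
p-groups with an automorphism of order `p` with few fixed points have bounded derived length
(Alperin), by the Lie ring bound and P. Hall's lemma.
-/

set_option autoImplicit false

namespace CfsgLib.FewFixedPoints

open CfsgLib.FixedPointFree CfsgLib.Kreknin

universe u

variable {p n : ℕ} [hp : Fact p.Prime]

theorem iterate_eq_pow_apply {G : Type*} [Group G] (φ : MulAut G) :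
    ∀ (k : ℕ) (g : G), (φ ^ k) g = φ^[k] g
  | 0, _ => rfl
  | k + 1, g => by
    rw [pow_succ, MulAut.mul_apply, iterate_eq_pow_apply φ k, Function.iterate_succ_apply]

/-- An abelian p-group of exponent dividing `e` has at most `e ^ (p * n) * p ^ n` elements. -/
theorem card_abelian_le {V : Type u} [Group V] [Finite V] (hcomm : ∀ x y : V, x * y = y * x)
    (hV : IsPGroup p V) {φ : V ≃* V} (h : Few φ p n) {e : ℕ} (he0 : 1 ≤ e)
    (he : ∀ v : V, v ^ e = 1) : Nat.card V ≤ e ^ (p * n) * p ^ n := by
  classical
  letI : CommGroup V := { (inferInstance : Group V) with mul_comm := hcomm }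
  have hdvd : orderOf (φ : MulAut V) ∣ p := orderOf_dvd_of_pow_eq_one (by
    ext v
    rw [iterate_eq_pow_apply, h.iter, MulAut.one_apply])
  rcases (Nat.dvd_prime hp.out).1 hdvd with h1 | h1
  · have htriv : ∀ v : V, φ v = v := fun v =>
      DFunLike.congr_fun (orderOf_eq_one_iff.1 h1) v
    calc Nat.card V = Nat.card {v : V // φ v = v} :=
          (Nat.card_congr (Equiv.subtypeUnivEquiv htriv)).symm
      _ ≤ p ^ n := h.card_le
      _ ≤ _ := Nat.le_mul_of_pos_left _ (pow_pos he0 _)
  · have hsub : IsPGroup p (MonoidHom.eqLocus φ.toMonoidHom (MonoidHom.id V)) := hV.to_subgroup _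
    obtain ⟨k, hk⟩ := IsPGroup.iff_card.1 hsub
    have hk' : Nat.card {v : V // φ v = v} = p ^ k := hk
    obtain ⟨S, hS, hcl⟩ := Cfsg.Agent.S3780.result hV φ h1 k hk'
    have hkn : k ≤ n := (Nat.pow_le_pow_iff_right hp.out.one_lt).1 (hk' ▸ h.card_le)
    have hrank : Group.rank V ≤ p * n :=
      (Group.rank_le hcl).trans (hS.trans (Nat.mul_le_mul_left p hkn))
    calc Nat.card V ≤ e ^ Group.rank V :=
          Nat.le_of_dvd (pow_pos he0 _) (card_dvd_exponent_pow_rank' V he)
      _ ≤ e ^ (p * n) := Nat.pow_le_pow_right he0 hrank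
      _ ≤ _ := Nat.le_mul_of_pos_right _ (pow_pos hp.out.pos _)

variable (p n) in
/-- The exponent bound of the factor of index `kh p`. -/
def expBound : ℕ := (p * p ^ n) ^ (kh p + 1)

variable (p n) in
/-- A bound exceeding the size of the factor of index `kh p`. -/
def width : ℕ := expBound p n ^ (p * n) * p ^ n

theorem relIndex_le {G : Type u} [Group G] [Finite G] (hG : IsPGroup p G) {φ : G ≃* G}
    (h : Few φ p n) : (lc G (kh p + 1)).relIndex (lc G (kh p)) ≤ width p n := by
  set A := lc G (kh p)
  set B := (lc G (kh p + 1)).subgroupOf A with hB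
  have hfix : ∀ (i : ℕ) (g : G), g ∈ lc G i → g⁻¹ * φ.toMonoidHom g ∈ lc G (i + 1) →
      g ^ p ^ n ∈ lc G (i + 1) := fun i g _ hg =>
    h.pow_mem hG (fun x hx => map_mem_lc φ.toMonoidHom hx) hg
  have hA : Invariant φ A := fun x hx => map_mem_lc φ.toMonoidHom hx
  have hBi : Invariant (FixedPointFree.restr φ hA) B := fun x hx => by
    rw [hB, Subgroup.mem_subgroupOf, coe_restr] at *
    exact map_mem_lc φ.toMonoidHom hx
  refine card_abelian_le (V := ↥A ⧸ B) (fun x y => (instCommGroupLcQuotient (G := G) (kh p)).mul_comm x y)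
    ((hG.to_subgroup A).to_quotient B) ((h.restr hA).quot hBi)
    (pow_pos (mul_pos hp.out.pos (pow_pos hp.out.pos n)) _) fun v => ?_
  induction v using QuotientGroup.induction_on with
  | H g =>
    rw [← QuotientGroup.mk_pow, QuotientGroup.eq_one_iff, hB, Subgroup.mem_subgroupOf]
    exact pow_mem_lc_succ (p := p) φ.toMonoidHom h.iter hfix g.2

variable (p n) in
/-- The derived length bound for p-groups. -/
def pBound : ℕ := width p n + (kh p + 1)

theorem derivedSeries_add_eq_bot {G : Type*} [Group G] {N : Subgroup G} {a b : ℕ}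
    (ha : derivedSeries G a ≤ N) (hb : derivedSeries N b = ⊥) : derivedSeries G (a + b) = ⊥ := by
  have h : ∀ i, derivedSeries G (a + i) ≤ (derivedSeries N i).map N.subtype := by
    intro i
    induction i with
    | zero =>
      rw [derivedSeries_zero, ← MonoidHom.range_eq_map, Subgroup.range_subtype]
      exact ha
    | succ i ih =>
      rw [← add_assoc, derivedSeries_succ, derivedSeries_succ, Subgroup.map_commutator]
      exact Subgroup.commutator_mono ih ih
  rw [eq_bot_iff]
  exact (h b).trans (by rw [hb, Subgroup.map_bot])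

/-- **Alperin**, p-group case. -/
theorem derivedSeries_pGroup {G : Type u} [Group G] [Finite G] (hG : IsPGroup p G) {φ : G ≃* G}
    (h : Few φ p n) : derivedSeries G (pBound p n) = ⊥ := by
  set M := width p n
  set N := lc G M
  have hN : Invariant φ N := fun x hx => map_mem_lc φ.toMonoidHom hx
  have hlc : lc N (kh p + 1) = ⊥ := by
    by_contra hne
    have hk : 1 < kh p + 1 := by unfold kh; omega
    have hne' : N.lowerCentralSeries (kh p + 1) ≠ ⊥ := by
      rw [← Subgroup.top_subtype_lowerCentralSeries]
      exact fun h0 => hne (Subgroup.map_injective N.subtype_injective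
        (by rw [h0, Subgroup.map_bot]))
    have hlow := Cfsg.Agent.S3781.result hG (M + 1) (Nat.le_add_left 1 M) N le_rfl (kh p + 1) hk hne'
    rw [Nat.add_sub_cancel, ← Subgroup.top_subtype_lowerCentralSeries N (kh p + 1),
      ← Subgroup.top_subtype_lowerCentralSeries N (kh p),
      Subgroup.relIndex_map_map_of_injective _ _ N.subtype_injective] at hlow
    have hup := relIndex_le (hG.to_subgroup N) (h.restr hN)
    have hlt : M < p ^ (M + 1) := (Nat.lt_succ_self M).trans (Nat.lt_pow_self hp.out.one_lt)
    exact absurd (hlow.trans hup) (Nat.not_le.2 hlt)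
  refine derivedSeries_add_eq_bot (N := N) (Subgroup.derived_le_lower_central M) ?_
  rw [eq_bot_iff, ← hlc]
  exact Subgroup.derived_le_lower_central _

end CfsgLib.FewFixedPoints
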